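import Cfsg.Agent.H53.HC.Gal

/-!
# Cuspidal characters of `SL_n(F)`, `n ≥ 3`, are not invariant under the graph automorphisms (helper15, S4816)

The results of `H53/HC/Gal.lean` for all `n ≥ 3` and `Θ = powTheta θ m`, `θ : L →*₀ ℂ` injective, `m ∣ q - 1`
(`m = q - 1`: `Θ` is trivial on `F`; `m = 1`: `Θ (-1) = -1`).
-/

set_option autoImplicit false
set_option linter.unusedSectionVars false

open Polynomial Cfsg
open scoped ComplexConjugate

namespace Cfsg.Agent.H15.RIM.Gal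

open Cfsg.Agent.H139.Cusp Cfsg.Agent.Characters Matrix
open Cfsg.Agent.H53.HC.Gal (exists_frob_eq exists_frob_pow exists_ext inner_ne_zero cuspMat_semilinear cuspMat_conj psi_inv)

universe u v w

attribute [local instance] fintypeHom fintypeSub finite_quot

/-! ### numbers -/

/-- reduction of the exponents -/
theorem exists_small {p Q M c : ℕ} (hcop : Nat.Coprime M p) (hM : p ^ Q ≡ 1 [MOD M]) (hQ : 0 < Q) (i j : ℕ)
    (h : M ∣ c * (p ^ i + p ^ j)) : ∃ b, 2 * b ≤ Q ∧ M ∣ c * (p ^ b + 1) := by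
  have hred : ∀ k : ℕ, p ^ k ≡ p ^ (k % Q) [MOD M] := by
    intro k
    conv_lhs => rw [← Nat.div_add_mod k Q, pow_add, pow_mul]
    have h1 := (hM.pow (k / Q)).mul_right (p ^ (k % Q))
    rwa [one_pow, one_mul] at h1
  have h1 : M ∣ c * (p ^ (i % Q) + p ^ (j % Q)) :=
    ((((hred i).add (hred j)).mul_left c).dvd_iff (dvd_refl M)).1 h
  have key : ∀ A B : ℕ, A ≤ B → B < Q → M ∣ c * (p ^ A + p ^ B) → ∃ b, 2 * b ≤ Q ∧ M ∣ c * (p ^ b + 1) := by
    intro A B hAB hBQ h2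
    have h3 : M ∣ c * (p ^ (B - A) + 1) := by
      have e1 : c * (p ^ A + p ^ B) = p ^ A * (c * (p ^ (B - A) + 1)) := by
        have : p ^ B = p ^ A * p ^ (B - A) := by rw [← pow_add]; congr 1; omega
        rw [this]; ring
      rw [e1] at h2
      exact (hcop.pow_right A).dvd_of_dvd_mul_left h2
    by_cases hb : 2 * (B - A) ≤ Q
    · exact ⟨B - A, hb, h3⟩
    · refine ⟨Q - (B - A), by omega, ?_⟩
      have h4 : M ∣ p ^ (Q - (B - A)) * (c * (p ^ (B - A) + 1)) := dvd_mul_of_dvd_right h3 _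
      have e1 : p ^ (Q - (B - A)) * (c * (p ^ (B - A) + 1)) = c * (p ^ Q + p ^ (Q - (B - A))) := by
        have : p ^ Q = p ^ (Q - (B - A)) * p ^ (B - A) := by rw [← pow_add]; congr 1; omega
        rw [this]; ring
      rw [e1] at h4
      have h5 : c * (p ^ Q + p ^ (Q - (B - A))) ≡ c * (1 + p ^ (Q - (B - A))) [MOD M] :=
        (hM.add_right _).mul_left c
      rw [add_comm (p ^ (Q - (B - A))) 1]
      exact (h5.dvd_iff (dvd_refl M)).1 h4
  rcases le_total (i % Q) (j % Q) with h6 | h6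
  · exact key _ _ h6 (Nat.mod_lt _ hQ) h1
  · exact key _ _ h6 (Nat.mod_lt _ hQ) (by rwa [add_comm (p ^ (j % Q))])

/-- **The numerical lemma**, `n ≥ 3`. -/
theorem nsN {p f : ℕ} (hp : p.Prime) (hf : 0 < f) {n M : ℕ} (hn : 3 ≤ n) (hM : (p ^ f - 1) * M = (p ^ f) ^ n - 1)
    (i j : ℕ) : ¬ M ∣ (p ^ f - 1) * ((p ^ f) ^ i + p ^ j) := by
  intro h
  have hp2 : 2 ≤ p := hp.two_le
  have hq2 : 2 ≤ p ^ f := hp2.trans (Nat.le_self_pow hf.ne' p)
  rcases Nat.lt_or_ge n 4 with hn4 | hn4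
  · obtain rfl : n = 3 := by omega
    have h5 : (p ^ f) ^ 3 - 1 = (p ^ f - 1) * ((p ^ f) ^ 2 + p ^ f + 1) := by
      obtain ⟨y, hy⟩ := Nat.exists_eq_add_of_le hq2
      rw [hy]
      have e1 : 2 + y - 1 = y + 1 := by omega
      have e2 : (2 + y) ^ 3 = (y + 1) * ((2 + y) ^ 2 + (2 + y) + 1) + 1 := by ring
      rw [e1]
      omega
    rw [h5] at hM
    have h6 := Nat.eq_of_mul_eq_mul_left (by omega) hM
    rw [h6] at h
    exact Cfsg.Agent.H53.HC.Gal.ns3 hp hf i j h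
  · set q := p ^ f with hq
    have hqn : 1 ≤ q ^ n := Nat.one_le_pow _ _ (by omega)
    have hMd : M ∣ q ^ n - 1 := ⟨q - 1, by rw [← hM, mul_comm]⟩
    have hmod : p ^ (f * n) ≡ 1 [MOD M] := by
      rw [pow_mul, ← hq]
      exact ((Nat.modEq_iff_dvd' hqn).2 hMd).symm
    have hcop : Nat.Coprime M p := by
      have h2 : Nat.gcd M p ∣ 1 := by
        have h3 : Nat.gcd M p ∣ q ^ n - 1 := (Nat.gcd_dvd_left M p).trans hMd
        have h4 : Nat.gcd M p ∣ q ^ n :=
          (Nat.gcd_dvd_right M p).trans ((dvd_pow_self p hf.ne').trans (dvd_pow_self q (by omega)))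
        have h5 := Nat.dvd_sub h4 h3
        rwa [Nat.sub_sub_self hqn] at h5
      exact Nat.dvd_one.1 h2
    obtain ⟨b, hb, hd⟩ := exists_small hcop hmod (by positivity) (f * i) j (by rwa [pow_mul, ← hq])
    have hle := Nat.le_of_dvd (Nat.mul_pos (by omega) (by positivity)) hd
    have h6 : q ^ n - 1 ≤ (q - 1) * ((q - 1) * (p ^ b + 1)) := by
      rw [← hM]; exact Nat.mul_le_mul_left _ hle
    have h7 : p ^ b * p ^ b ≤ q ^ n := by
      rw [← pow_add, hq, ← pow_mul]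
      exact Nat.pow_le_pow_right (by omega) (by omega)
    set s := p ^ b with hs
    obtain ⟨y, hy⟩ := Nat.exists_eq_add_of_le hq2
    have h8 : (2 + y) ^ 4 ≤ q ^ n := by rw [← hy]; exact Nat.pow_le_pow_right (by omega) hn4
    have h9 : q - 1 = y + 1 := by omega
    have h10 : q ^ n ≤ (y + 1) * ((y + 1) * (s + 1)) + 1 := by rw [← h9]; omega
    rcases Nat.lt_or_ge ((2 + y) ^ 2) s with hs2 | hs2
    · nlinarith [hs2, h7, h10]
    · have h11 : (y + 1) * ((y + 1) * (s + 1)) ≤ (y + 1) * ((y + 1) * ((2 + y) ^ 2 + 1)) := by gcongr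
      have h12 : (2 + y) ^ 4 ≤ (y + 1) * ((y + 1) * ((2 + y) ^ 2 + 1)) + 1 := by omega
      nlinarith [h12]

section main

variable {n : ℕ} {F : Type u} [Field F] [Finite F] {L : Type w} [Field L] [Finite L] [Algebra F L]
  {θ : L →*₀ ℂ} (hθ : Function.Injective θ)

include hθ

theorem no_common (hn : Module.finrank F L = n) (hn3 : 3 ≤ n) {p : ℕ} [Fact p.Prime] [CharP F p] {σ : L ≃+* L} {j : ℕ}
    (hσ : ∀ x, σ x = x ^ p ^ j) {m : ℕ} (hm0 : m ≠ 0) (hm : m ∣ Nat.card F - 1)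
    {Θ' : L →*₀ ℂ}
    (hΘ' : ∀ x, Θ' x = conj (powTheta θ m hm0 (σ x)))
    [Fintype (SpecialLinearGroup (Fin n) F)]
    (h : classInner (psi (n := n) (F := F) L (powTheta θ m hm0) ∘ SpecialLinearGroup.toGL)
      (psi L Θ' ∘ SpecialLinearGroup.toGL) ≠ 0) : False := by
  have hp : p.Prime := Fact.out
  have : Fintype F := Fintype.ofFinite F
  obtain ⟨i, -, hi⟩ := exists_frob_eq hn _ _ h
  obtain ⟨f, hf⟩ : ∃ f : ℕ+, Fintype.card F = p ^ (f : ℕ) := by
    obtain ⟨f, -, hf⟩ := FiniteField.card F p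
    exact ⟨f, hf⟩
  have hq : Nat.card F = p ^ (f : ℕ) := by rw [Nat.card_eq_fintype_card, hf]
  have hq2 : 2 ≤ Nat.card F := Finite.one_lt_card
  obtain ⟨γ, hγ⟩ := IsCyclic.exists_ofOrder_eq_natCard (α := Lˣ)
  set q := Nat.card F with hqd
  -- the norm of `γ ^ (q - 1)`
  have hnorm : Algebra.norm F ((γ : L) ^ (q - 1)) = 1 := by
    rw [map_pow]
    have h1 : Algebra.norm F (γ : L) ≠ 0 := by
      rw [Ne, Algebra.norm_eq_zero_iff]
      exact γ.ne_zero
    have h3 : (Units.mk0 _ h1) ^ (q - 1) = 1 := by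
      rw [hqd, ← Nat.card_units]
      exact pow_card_eq_one'
    exact congrArg Units.val h3
  have h1 := hi _ hnorm
  rw [hΘ', conj_theta_eq, powTheta_apply, powTheta_apply, hσ] at h1
  -- `γ ^ ((q - 1) * (m * (q ^ i + p ^ j))) = 1`
  have h2 : θ ((γ : L) ^ ((q - 1) * (m * (q ^ i + p ^ j)))) = 1 := by
    have e1 : (q - 1) * (m * (q ^ i + p ^ j)) = (q - 1) * q ^ i * m + (q - 1) * p ^ j * m := by ring
    rw [e1, pow_add, map_mul, pow_mul _ ((q - 1) * q ^ i), pow_mul _ ((q - 1) * p ^ j), map_pow θ (_ ^ _) m,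
      map_pow θ (_ ^ _) m, pow_mul, pow_mul, ← h1, map_inv₀, inv_pow]
    refine inv_mul_cancel₀ (pow_ne_zero _ ?_)
    rw [Ne, map_eq_zero θ]
    exact pow_ne_zero _ (pow_ne_zero _ γ.ne_zero)
  have h3 : γ ^ ((q - 1) * (m * (q ^ i + p ^ j))) = 1 := by
    apply Units.ext
    rw [Units.val_pow_eq_pow_val, Units.val_one]
    exact hθ (by rw [h2, map_one])
  have h4 := orderOf_dvd_of_pow_eq_one h3
  rw [hγ, Nat.card_units, Module.natCard_eq_pow_finrank (K := F), hn, ← hqd] at h4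
  obtain ⟨M, hM⟩ : q - 1 ∣ q ^ n - 1 := by simpa using Nat.sub_dvd_pow_sub_pow q 1 n
  rw [hM] at h4
  have h6 : M ∣ (q - 1) * (q ^ i + p ^ j) :=
    (Nat.dvd_of_mul_dvd_mul_left (by omega) h4).trans (Nat.mul_dvd_mul_right hm _)
  rw [hq] at h6 hM
  exact nsN hp f.2 hn3 hM.symm i j h6

/-- **No invariance under the graph automorphisms.** -/
theorem not_swap (hn : Module.finrank F L = n) (hn3 : 3 ≤ n) {m : ℕ} (hm0 : m ≠ 0) (hm : m ∣ Nat.card F - 1) {η : SpecialLinearGroup (Fin n) F → ℂ}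
    (hη : IsIrrCharacter _ η)
    (hc : IsCharacter _ (psi (n := n) (F := F) L (powTheta θ m hm0) ∘ SpecialLinearGroup.toGL - η))
    (τ : F ≃+* F) (C : GL (Fin n) F) (α : SpecialLinearGroup (Fin n) F →* SpecialLinearGroup (Fin n) F)
    (hα : ∀ x, (α x : Matrix (Fin n) (Fin n) F) =
      C * ((x⁻¹ : SpecialLinearGroup (Fin n) F) : Matrix (Fin n) (Fin n) F).transpose.map τ *
        ((C⁻¹ : GL (Fin n) F) : Matrix (Fin n) (Fin n) F)) : η ∘ α ≠ η := by
  classical
  intro hinv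
  have : Fintype F := Fintype.ofFinite F
  obtain ⟨p, hp'⟩ := CharP.exists F
  have : Fact p.Prime := ⟨CharP.char_is_prime F p⟩
  obtain ⟨j, hj⟩ := exists_frob_pow (p := p) τ
  obtain ⟨σ, hσ, hστ⟩ := exists_ext (L := L) hj
  set Θ := powTheta θ m hm0 with hΘ
  let Θ₁ : L →*₀ ℂ := Θ.comp (σ : L →+* L).toMonoidWithZeroHom
  have hΘ₁ : ∀ x, Θ (σ x) = Θ₁ x := fun x => rfl
  refine no_common hθ hn hn3 hσ hm0 hm (Θ' := conjTheta Θ₁) (fun x => rfl) (inner_ne_zero hη hc ?_)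
  have h1 : (psi (n := n) (F := F) L Θ ∘ SpecialLinearGroup.toGL) ∘ α =
      psi L (conjTheta Θ₁) ∘ SpecialLinearGroup.toGL := by
    funext x
    rw [Function.comp_apply, Function.comp_apply, Function.comp_apply, ← psi_inv hn Θ₁, ← map_inv]
    -- the matrix
    let B : GL (Fin n) F := GeneralLinearGroup.map (τ : F →+* F)
      ((SpecialLinearGroup.toGL x⁻¹ : GL (Fin n) F)⁻¹)
    have h2 : psi L Θ (SpecialLinearGroup.toGL (α x)) =
        cuspMat L Θ (((x⁻¹ : SpecialLinearGroup (Fin n) F) : Matrix (Fin n) (Fin n) F).transpose.map τ) := by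
      let T : SpecialLinearGroup (Fin n) F := ⟨((x⁻¹ : SpecialLinearGroup (Fin n) F) :
        Matrix (Fin n) (Fin n) F).transpose.map τ, by
          have h3 : (((x⁻¹ : SpecialLinearGroup (Fin n) F) : Matrix (Fin n) (Fin n) F).transpose.map τ).det =
              τ (((x⁻¹ : SpecialLinearGroup (Fin n) F) : Matrix (Fin n) (Fin n) F).transpose.det) :=
            (RingHom.map_det (τ : F →+* F) _).symm
          rw [h3, Matrix.det_transpose, (x⁻¹).2, map_one]⟩
      have h4 : ((C * SpecialLinearGroup.toGL T * C⁻¹ : GL (Fin n) F) : Matrix (Fin n) (Fin n) F) = (α x).1 := by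
        rw [hα]; rfl
      have h5 := cuspMat_conj Θ C (SpecialLinearGroup.toGL T)
      rw [h4] at h5
      exact h5
    rw [h2, Matrix.transpose_map, cuspMat_transpose, cuspMat_semilinear hn hστ hΘ₁]
    rfl
  have h2 := Core.isCharacter_comp α hc
  have h3 : (psi (n := n) (F := F) L Θ ∘ SpecialLinearGroup.toGL - η) ∘ α =
      psi L (conjTheta Θ₁) ∘ SpecialLinearGroup.toGL - η := by
    rw [← h1]
    funext x
    change (psi L Θ ∘ SpecialLinearGroup.toGL) (α x) - (η ∘ α) x = _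
    rw [hinv]
    rfl
  rw [h3] at h2
  exact h2

/-- **The complex conjugate is not a semilinear conjugate.** -/
theorem not_direct (hn : Module.finrank F L = n) (hn3 : 3 ≤ n) {m : ℕ} (hm0 : m ≠ 0) (hm : m ∣ Nat.card F - 1) {η : SpecialLinearGroup (Fin n) F → ℂ}
    (hη : IsIrrCharacter _ η)
    (hc : IsCharacter _ (psi (n := n) (F := F) L (powTheta θ m hm0) ∘ SpecialLinearGroup.toGL - η))
    (τ : F ≃+* F) (C : GL (Fin n) F) (α : SpecialLinearGroup (Fin n) F →* SpecialLinearGroup (Fin n) F)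
    (hα : ∀ x, (α x : Matrix (Fin n) (Fin n) F) =
      C * (x : Matrix (Fin n) (Fin n) F).map τ * ((C⁻¹ : GL (Fin n) F) : Matrix (Fin n) (Fin n) F)) :
    η ∘ α ≠ fun x => conj (η x) := by
  classical
  intro hinv
  have : Fintype F := Fintype.ofFinite F
  obtain ⟨p, hp'⟩ := CharP.exists F
  have : Fact p.Prime := ⟨CharP.char_is_prime F p⟩
  obtain ⟨j, hj⟩ := exists_frob_pow (p := p) τ
  obtain ⟨σ, hσ, hστ⟩ := exists_ext (L := L) hj
  set Θ := powTheta θ m hm0 with hΘ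
  let Θ₁ : L →*₀ ℂ := Θ.comp (σ : L →+* L).toMonoidWithZeroHom
  have hΘ₁ : ∀ x, Θ (σ x) = Θ₁ x := fun x => rfl
  refine no_common hθ hn hn3 hσ hm0 hm (Θ' := conjTheta Θ₁) (fun x => rfl) (inner_ne_zero hη hc ?_)
  have h1 : ∀ x, psi L Θ (SpecialLinearGroup.toGL (α x)) = psi L Θ₁ (SpecialLinearGroup.toGL x) := by
    intro x
    have h2 : psi L Θ (SpecialLinearGroup.toGL (α x)) = cuspMat L Θ ((x : Matrix (Fin n) (Fin n) F).map τ) := by
      let T : SpecialLinearGroup (Fin n) F := ⟨(x : Matrix (Fin n) (Fin n) F).map τ, by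
          have h3 : ((x : Matrix (Fin n) (Fin n) F).map τ).det = τ ((x : Matrix (Fin n) (Fin n) F).det) :=
            (RingHom.map_det (τ : F →+* F) _).symm
          rw [h3, x.2, map_one]⟩
      have h4 : ((C * SpecialLinearGroup.toGL T * C⁻¹ : GL (Fin n) F) : Matrix (Fin n) (Fin n) F) = (α x).1 := by
        rw [hα]; rfl
      have h5 := cuspMat_conj Θ C (SpecialLinearGroup.toGL T)
      rw [h4] at h5
      exact h5
    rw [h2, cuspMat_semilinear hn hστ hΘ₁]
    rfl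
  have h2 := Core.isCharacter_conj (Core.isCharacter_comp α hc)
  have h3 : (fun x => conj (((psi (n := n) (F := F) L Θ ∘ SpecialLinearGroup.toGL - η) ∘ α) x)) =
      psi L (conjTheta Θ₁) ∘ SpecialLinearGroup.toGL - η := by
    funext x
    change conj (psi L Θ (SpecialLinearGroup.toGL (α x)) - (η ∘ α) x) =
      psi L (conjTheta Θ₁) (SpecialLinearGroup.toGL x) - η x
    rw [hinv, map_sub, Complex.conj_conj, h1]
    congr 1
    exact cusp_star L Θ₁ _
  rw [h3] at h2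
  exact h2

end main

end Cfsg.Agent.H15.RIM.Gal
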